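import Mathlib
import Cfsg.Agent.Lib.Helper9.BG1356.Defs
import Cfsg.Agent.Lib.Helper35.BG.Basic
import Cfsg.Agent.Lib.Helper35.BG.Compl
import Cfsg.Agent.Lib.Helper16.BG.NilHall
import Cfsg.Agent.Lib.Helper23.Compl
import Cfsg.Agent.Lib.Helper23.TypeP

/-!
# Package PkgC of the S1356 project (helper9)

Schur–Zassenhaus with a Sylow subgroup inside: a normal Hall subgroup `Q` of `M`, `Q ≤ S ⊴ M`, `K` a
Sylow `p`-subgroup of `M` with `p ∤ |Q|`: `Q` has a complement in `S` normalized by `K`.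
-/

set_option autoImplicit false

namespace Cfsg.Agent.Lib.Helper77.BG1356

open Cfsg

universe u

/-- Schur–Zassenhaus with a prescribed `p`-subgroup inside the complement: `Q` normal Hall in `M`,
`K ≤ M` a `p`-subgroup with `p ∤ |Q|`; then `Q` has a complement `E` in `M` with `K ≤ E`. -/
theorem exists_isComplIn_ge_sylow {G : Type u} [Group G] [Finite G] (M Q K : Subgroup G) (p : ℕ)
    (hp : p.Prime) (hQM : Q ≤ M) (hMQ : M ≤ Subgroup.normalizer (Q : Set G))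
    (hcop : (Nat.card Q).Coprime (Q.relIndex M))
    (hKM : K ≤ M) (hKp : IsPGroup p K) (hpQ : ¬ p ∣ Nat.card Q) :
    ∃ E : Subgroup G, IsComplIn Q E M ∧ K ≤ E := by
  have : Fact p.Prime := ⟨hp⟩
  obtain ⟨E, hE⟩ := Cfsg.Agent.Lib.Helper35.BG.exists_isComplIn_of_coprime hQM hMQ hcop
  have hcardM : Nat.card M = Nat.card Q * Nat.card E :=
    Cfsg.Agent.Lib.Helper23.card_of_isComplIn hE
  obtain ⟨hQM', hEM, hQE, hprod⟩ := hE
  -- a Sylow p-subgroup of E
  obtain ⟨K₁⟩ : Nonempty (Sylow p E) := inferInstance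
  have hK₁E : (K₁ : Subgroup E).map E.subtype ≤ E := Subgroup.map_subtype_le _
  have hK₁p : IsPGroup p ((K₁ : Subgroup E).map E.subtype) := K₁.isPGroup'.map _
  have hidx : ¬ p ∣ ((K₁ : Subgroup E).map E.subtype).relIndex M := by
    have hcardK : Nat.card ((K₁ : Subgroup E).map E.subtype) = Nat.card (K₁ : Subgroup E) :=
      Subgroup.card_map_of_injective E.subtype_injective
    have h1 : Nat.card (K₁ : Subgroup E) * (K₁ : Subgroup E).index = Nat.card E :=
      Subgroup.card_mul_index _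
    have h2 : Nat.card ((K₁ : Subgroup E).map E.subtype) *
        ((K₁ : Subgroup E).map E.subtype).relIndex M = Nat.card M :=
      Cfsg.Agent.Lib.Helper23.card_mul_relIndex (hK₁E.trans hEM)
    have h3 : ((K₁ : Subgroup E).map E.subtype).relIndex M =
        Nat.card Q * (K₁ : Subgroup E).index := by
      have hpos : 0 < Nat.card ((K₁ : Subgroup E).map E.subtype) := Nat.card_pos
      apply Nat.eq_of_mul_eq_mul_left hpos
      rw [h2, hcardM, ← h1, hcardK]
      ring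
    rw [h3]
    intro hdvd
    rcases (Nat.Prime.dvd_mul hp).mp hdvd with h | h
    · exact hpQ h
    · exact K₁.not_dvd_index h
  obtain ⟨d, hdM, hd⟩ := Cfsg.Agent.Lib.Helper16.BG.rel_sylow_conj M K
    ((K₁ : Subgroup E).map E.subtype) hKM hKp hK₁p hidx
  have hmemE' : ∀ x, x ∈ E.map (MulAut.conj d⁻¹).toMonoidHom ↔ d * x * d⁻¹ ∈ E := by
    intro x
    rw [Cfsg.Agent.Lib.Helper35.BG.mem_map_conj_iff]
    simp
  have hQnorm : ∀ m ∈ M, ∀ x, x ∈ Q ↔ m * x * m⁻¹ ∈ Q :=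
    fun m hm => Subgroup.mem_normalizer_iff.mp (hMQ hm)
  refine ⟨E.map (MulAut.conj d⁻¹).toMonoidHom, ⟨hQM, ?_, ?_, ?_⟩, ?_⟩
  · intro x hx
    have h1 := hEM ((hmemE' x).mp hx)
    have h2 : x = d⁻¹ * (d * x * d⁻¹) * d := by group
    rw [h2]
    exact M.mul_mem (M.mul_mem (M.inv_mem hdM) h1) hdM
  · rw [eq_bot_iff]
    intro x hx
    have hxQ := (Subgroup.mem_inf.mp hx).1
    have hxE' := (Subgroup.mem_inf.mp hx).2
    have h1 : d * x * d⁻¹ ∈ Q ⊓ E :=
      Subgroup.mem_inf.mpr ⟨(hQnorm d hdM x).mp hxQ, (hmemE' x).mp hxE'⟩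
    rw [hQE, Subgroup.mem_bot] at h1
    rw [Subgroup.mem_bot]
    have h2 : x = d⁻¹ * (d * x * d⁻¹) * d := by group
    rw [h2, h1]
    group
  · intro m hm
    obtain ⟨a, ha, b, hb, hab⟩ :=
      hprod (d * m * d⁻¹) (M.mul_mem (M.mul_mem hdM hm) (M.inv_mem hdM))
    refine ⟨d⁻¹ * a * d, ?_, d⁻¹ * b * d, ?_, ?_⟩
    · have h1 := (hQnorm d⁻¹ (M.inv_mem hdM) a).mp ha
      simpa using h1
    · rw [hmemE']
      have h1 : d * (d⁻¹ * b * d) * d⁻¹ = b := by group
      rw [h1]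
      exact hb
    · have h1 : m = d⁻¹ * (d * m * d⁻¹) * d := by group
      rw [h1, hab]
      group
  · intro k hk
    rw [hmemE']
    exact hK₁E (hd k hk)

theorem pkgC : Cfsg.Agent.Lib.Helper9.BG1356.PkgC.{u} := by
  intro G _ _ M S Q K p hp hQS hSM hMQ hMS hcop hKM hKp _ hpQ
  obtain ⟨E, hE, hKE⟩ := exists_isComplIn_ge_sylow M Q K p hp (hQS.trans hSM) hMQ hcop hKM hKp
    hpQ
  obtain ⟨hQM', hEM, hQE, hprod⟩ := hE
  refine ⟨E ⊓ S, ⟨hQS, inf_le_right, ?_, ?_⟩, ?_⟩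
  · rw [eq_bot_iff, ← hQE]
    exact inf_le_inf_left Q inf_le_left
  · intro s hs
    obtain ⟨a, ha, b, hb, hab⟩ := hprod s (hSM hs)
    refine ⟨a, ha, b, Subgroup.mem_inf.mpr ⟨hb, ?_⟩, hab⟩
    have h1 : b = a⁻¹ * s := by rw [hab]; group
    rw [h1]
    exact S.mul_mem (S.inv_mem (hQS ha)) hs
  · intro k hk
    rw [Subgroup.mem_normalizer_iff]
    intro x
    have hkE := hKE hk
    have hS := Subgroup.mem_normalizer_iff.mp (hMS (hKM hk)) x
    have hEiff : x ∈ E ↔ k * x * k⁻¹ ∈ E := by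
      constructor
      · intro hx
        exact E.mul_mem (E.mul_mem hkE hx) (E.inv_mem hkE)
      · intro hx
        have h1 : x = k⁻¹ * (k * x * k⁻¹) * k := by group
        rw [h1]
        exact E.mul_mem (E.mul_mem (E.inv_mem hkE) hx) hkE
    rw [Subgroup.mem_inf, Subgroup.mem_inf, hEiff, hS]

end Cfsg.Agent.Lib.Helper77.BG1356
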